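import Mathlib
import Cfsg.Prelude.Def_AxialAlgebras

/-! Facts about one Majorana axis used for Sakuma's theorem. -/

set_option autoImplicit false

namespace Cfsg.Agent.H89.Sakuma

open Cfsg.Axial

variable {V : Type*} [AddCommGroup V] [Module ℝ V] {mul : V →ₗ[ℝ] V →ₗ[ℝ] V}
  {B : LinearMap.BilinForm ℝ V} {μ : V ≃ₗ[ℝ] V} {a : V}

lemma split_spectrum (h : IsMajoranaPair mul B μ a) (v : V) :
    ∃ p q : V, p + q = v ∧ μ p = p ∧ p ∈ eigenSum mul a {1, 0, 1 / 4} ∧
      μ q = -q ∧ mul a q = (1 / 32 : ℝ) • q := by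
  obtain ⟨-, -, ⟨⟨-, -, htop, -⟩, -⟩, hfix, hneg⟩ := h
  have hdec : v ∈ eigenSum mul a majoranaSpectrum := htop ▸ Submodule.mem_top
  have hS : eigenSum mul a majoranaSpectrum =
      eigenSum mul a {1, 0, 1 / 4} ⊔ eigen mul a (1 / 32) := by
    simp only [eigenSum, majoranaSpectrum, iSup_insert, iSup_singleton, sup_assoc]
  rw [hS, Submodule.mem_sup] at hdec
  obtain ⟨p, hp, q, hq, rfl⟩ := hdec
  exact ⟨p, q, rfl, hfix p hp, hp, hneg q hq, Module.End.mem_eigenspace_iff.mp hq⟩

lemma involutive (h : IsMajoranaPair mul B μ a) (v : V) : μ (μ v) = v := by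
  obtain ⟨p, q, rfl, hp, -, hq, -⟩ := split_spectrum h v
  simp [hp, hq]

lemma fix_axis (h : IsMajoranaPair mul B μ a) : μ a = a := by
  have hprim := h.2.2.1.2
  refine h.2.2.2.1 a ?_
  simp only [eigenSum, iSup_insert, iSup_singleton]
  apply Submodule.mem_sup_left
  rw [hprim]
  exact Submodule.mem_span_singleton_self a

lemma anti_eigen (h : IsMajoranaPair mul B μ a) {v : V} (hv : μ v = -v) :
    mul a v = (1 / 32 : ℝ) • v := by
  obtain ⟨p, q, rfl, hp, -, hq, hq'⟩ := split_spectrum h v
  have h2 : (2 : ℝ) • p = 0 := by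
    rw [map_add, hp, hq] at hv
    linear_combination (norm := module) (1 : ℝ) • hv
  have hp0 : p = 0 := (smul_eq_zero.mp h2).resolve_left (by norm_num)
  simpa [hp0] using hq'

/-- The vector `a b - (a + b) / 32` is the same for `b` and its image. -/
lemma mid (h : IsMajoranaPair mul B μ a) {b c : V} (hb : μ b = c) :
    mul a b - (1 / 32 : ℝ) • (a + b) = mul a c - (1 / 32 : ℝ) • (a + c) := by
  have hv : μ (b - c) = -(b - c) := by
    rw [map_sub, hb, ← hb, involutive h]; abel
  have := anti_eigen h hv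
  rw [map_sub] at this
  linear_combination (norm := module) (1 : ℝ) • this

/-- Decomposition of a fixed vector, with the fusion rules for the three possible products. -/
lemma fixed_fusion (hV : IsMajoranaAmbient mul B) (h : IsMajoranaPair mul B μ a) (hn : B a a = 1)
    {v : V} (hv : μ v = v) :
    ∃ t q, mul a t = 0 ∧ mul a q = (1 / 4 : ℝ) • q ∧ v = B a v • a + t + q ∧
      mul a (mul t t) = 0 ∧ mul a (mul t q) = (1 / 4 : ℝ) • mul t q ∧
      mul a (mul q q) = ((1 / 4 : ℝ) * B v q) • a := by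
  obtain ⟨hcomm, -, -, hassoc, -⟩ := hV
  obtain ⟨p, r, rfl, hp, hp', hr, -⟩ := split_spectrum h v
  have hr0 : r = 0 := by
    rw [map_add, hp, hr] at hv
    have h2 : (2 : ℝ) • r = 0 := by linear_combination (norm := module) (-1 : ℝ) • hv
    exact (smul_eq_zero.mp h2).resolve_left (by norm_num)
  subst hr0
  obtain ⟨-, -, ⟨⟨-, haa, -, hlaw⟩, hprim⟩, -, -⟩ := h
  simp only [add_zero]
  simp only [eigenSum, iSup_insert, iSup_singleton, Submodule.mem_sup] at hp'
  obtain ⟨w, hw, -, ⟨t, ht, q, hq, rfl⟩, rfl⟩ := hp'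
  rw [hprim, Submodule.mem_span_singleton] at hw
  obtain ⟨γ, rfl⟩ := hw
  have ht' : mul a t = 0 := by simpa [eigen, Module.End.mem_eigenspace_iff] using ht
  have hq' : mul a q = (1 / 4 : ℝ) • q := Module.End.mem_eigenspace_iff.mp hq
  have hat : B a t = 0 := by
    have h := hassoc a a t; rw [ht', map_zero, haa] at h; exact h.symm
  have haq : B a q = 0 := by
    have h := hassoc a a q; rw [hq', map_smul, haa, smul_eq_mul] at h; linarith
  have htq : B t q = 0 := by
    have h1 := hassoc t a q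
    rw [hq', map_smul, smul_eq_mul] at h1
    have h2 : mul t a = 0 := by rw [hcomm]; exact ht'
    rw [h2] at h1
    simp at h1
    linarith
  have hγ : B a (γ • a + (t + q)) = γ := by
    rw [map_add, map_add, map_smul, hat, haq, hn]; simp
  refine ⟨t, q, ht', hq', by rw [hγ, add_assoc], ?_, ?_, ?_⟩
  · have h0 : monsterLaw (1 / 4 : ℝ) (1 / 32) 0 0 = {0} := by unfold monsterLaw; norm_num
    have h1 := hlaw 0 (by simp [majoranaSpectrum]) 0 (by simp [majoranaSpectrum]) t ht t ht
    rw [h0] at h1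
    simpa [eigenSum, eigen, Module.End.mem_eigenspace_iff] using h1
  · have h0 : monsterLaw (1 / 4 : ℝ) (1 / 32) 0 (1 / 4) = {1 / 4} := by unfold monsterLaw; norm_num
    have h1 := hlaw 0 (by simp [majoranaSpectrum]) (1 / 4) (by simp [majoranaSpectrum]) t ht q hq
    rw [h0] at h1
    simp only [eigenSum, iSup_singleton] at h1
    exact Module.End.mem_eigenspace_iff.mp h1
  · have h0 : monsterLaw (1 / 4 : ℝ) (1 / 32) (1 / 4) (1 / 4) = {1, 0} := by
      unfold monsterLaw; norm_num
    have h1 := hlaw (1 / 4) (by simp [majoranaSpectrum]) (1 / 4) (by simp [majoranaSpectrum]) q hq q hq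
    rw [h0] at h1
    simp only [eigenSum, iSup_insert, iSup_singleton, Submodule.mem_sup] at h1
    obtain ⟨u, hu, r, hr, hur⟩ := h1
    rw [hprim, Submodule.mem_span_singleton] at hu
    obtain ⟨k, rfl⟩ := hu
    have hr' : mul a r = 0 := by simpa [eigen, Module.End.mem_eigenspace_iff] using hr
    have har : B a r = 0 := by
      have h := hassoc a a r; rw [hr', map_zero, haa] at h; exact h.symm
    have hk : k = (1 / 4 : ℝ) * B (γ • a + (t + q)) q := by
      have e1 : B a (mul q q) = k := by rw [← hur, map_add, map_smul, har, hn]; simp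
      have e2 : B a (mul q q) = (1 / 4 : ℝ) * B q q := by
        rw [hassoc, hq', map_smul, LinearMap.smul_apply, smul_eq_mul]
      rw [← e1, e2]
      simp [haq, htq]
    rw [← hk, ← hur, map_add, map_smul, haa, hr', add_zero]

end Cfsg.Agent.H89.Sakuma
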