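import Mathlib
import Cfsg.Agent.H89.Sakuma.Axis

/-! Products in the algebra spanned by a reflection-invariant sequence of Majorana axes. -/

set_option autoImplicit false

namespace Cfsg.Agent.H89.Sakuma

open Cfsg.Axial

variable {V : Type*} [AddCommGroup V] [Module ℝ V]

/-- A two-sided sequence of axes, each involution reflecting the sequence about its axis. -/
structure Seq (mul : V →ₗ[ℝ] V →ₗ[ℝ] V) (B : LinearMap.BilinForm ℝ V) where
  a : ℤ → V
  ν : ℤ → (V ≃ₗ[ℝ] V)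
  amb : IsMajoranaAmbient mul B
  pair : ∀ i, IsMajoranaPair mul B (ν i) (a i)
  unit : ∀ i, B (a i) (a i) = 1
  refl : ∀ i j, ν i (a j) = a (2 * i - j)

namespace Seq

variable {mul : V →ₗ[ℝ] V →ₗ[ℝ] V} {B : LinearMap.BilinForm ℝ V} (P : Seq mul B)

include P in
lemma cm (u v : V) : mul u v = mul v u := P.amb.1 u v
include P in
lemma sy (u v : V) : B u v = B v u := P.amb.2.1 u v
include P in
lemma assoc' (u v w : V) : B (mul u v) w = B u (mul v w) := (P.amb.2.2.2.1 u v w).symm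

lemma idem (i : ℤ) : mul (P.a i) (P.a i) = P.a i := (P.pair i).2.2.1.1.2.1

/-- `λ₁`. -/
def x : ℝ := B (P.a 0) (P.a 1)
/-- `λ₂` of a given parity. -/
def Y (i : ℤ) : ℝ := B (P.a i) (P.a (i + 2))
/-- `λ₂`. -/
def y : ℝ := P.Y 0
/-- `σ₁`. -/
noncomputable def S : V := mul (P.a 0) (P.a 1) - (1 / 32 : ℝ) • (P.a 0 + P.a 1)
/-- `σ₂` of a given parity. -/
noncomputable def T (i : ℤ) : V :=
  mul (P.a i) (P.a (i + 2)) - (1 / 32 : ℝ) • (P.a i + P.a (i + 2))

lemma mid_seq (i k : ℤ) :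
    mul (P.a i) (P.a (i + k)) - (1 / 32 : ℝ) • (P.a i + P.a (i + k)) =
      mul (P.a (i - k)) (P.a i) - (1 / 32 : ℝ) • (P.a (i - k) + P.a i) := by
  have h := mid (P.pair i) (P.refl i (i + k))
  rw [show 2 * i - (i + k) = i - k by ring] at h
  rw [h, P.cm (P.a (i - k)), add_comm (P.a (i - k))]

lemma dot_seq (i k : ℤ) : B (P.a i) (P.a (i + k)) = B (P.a (i - k)) (P.a i) := by
  have h := (P.pair i).2.1 (P.a i) (P.a (i + k))
  rw [P.refl, P.refl, show 2 * i - i = i by ring, show 2 * i - (i + k) = i - k by ring] at h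
  rw [← h, P.sy]

lemma const_of_step {α : Type*} (f : ℤ → α) (h : ∀ i, f i = f (i - 1)) (i : ℤ) : f i = f 0 := by
  induction i using Int.induction_on with
  | zero => rfl
  | succ i ih => rw [h, show (i : ℤ) + 1 - 1 = i by ring, ih]
  | pred i ih => rw [← h, ih]

lemma mul_next (i : ℤ) :
    mul (P.a i) (P.a (i + 1)) = P.S + (1 / 32 : ℝ) • (P.a i + P.a (i + 1)) := by
  have h := const_of_step
    (fun j => mul (P.a j) (P.a (j + 1)) - (1 / 32 : ℝ) • (P.a j + P.a (j + 1))) (fun j => by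
      simpa using P.mid_seq j 1) i
  rw [S]
  simp only [zero_add] at h
  linear_combination (norm := module) (1 : ℝ) • h

lemma dot_next (i : ℤ) : B (P.a i) (P.a (i + 1)) = P.x := by
  have h := const_of_step (fun j => B (P.a j) (P.a (j + 1))) (fun j => by
    simpa using P.dot_seq j 1) i
  simpa [x] using h

lemma T_period (i : ℤ) : P.T (i + 2) = P.T i := by
  have h := P.mid_seq (i + 2) 2
  rw [show i + 2 - 2 = i by ring] at h
  exact h

lemma Y_period (i : ℤ) : P.Y (i + 2) = P.Y i := by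
  have h := P.dot_seq (i + 2) 2
  rw [show i + 2 - 2 = i by ring] at h
  exact h

lemma mul_two (i : ℤ) :
    mul (P.a i) (P.a (i + 2)) = P.T i + (1 / 32 : ℝ) • (P.a i + P.a (i + 2)) := by
  rw [T]; abel

lemma mul_prev (i : ℤ) :
    mul (P.a i) (P.a (i - 1)) = P.S + (1 / 32 : ℝ) • (P.a i + P.a (i - 1)) := by
  have h := P.mul_next (i - 1)
  rw [sub_add_cancel] at h
  rw [P.cm, h, add_comm (P.a i)]

lemma mul_two_prev (i : ℤ) :
    mul (P.a i) (P.a (i - 2)) = P.T i + (1 / 32 : ℝ) • (P.a i + P.a (i - 2)) := by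
  have h := P.mul_two (i - 2)
  rw [sub_add_cancel] at h
  have h2 := P.T_period (i - 2)
  rw [sub_add_cancel] at h2
  rw [P.cm, h, h2, add_comm (P.a i)]

lemma dot_prev (i : ℤ) : B (P.a i) (P.a (i - 1)) = P.x := by
  have h := P.dot_next (i - 1)
  rwa [sub_add_cancel, P.sy] at h

lemma dot_a_S (i : ℤ) : B (P.a i) P.S = 31 / 32 * P.x - 1 / 32 := by
  have h : P.S = mul (P.a i) (P.a (i + 1)) - (1 / 32 : ℝ) • (P.a i + P.a (i + 1)) := by
    rw [P.mul_next]; abel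
  rw [h, map_sub, map_smul, map_add, P.amb.2.2.2.1, P.idem, P.dot_next, P.unit, smul_eq_mul]
  ring

/-- Fusion data at the axis `a i` for the pair of its neighbours. -/
lemma nb_fusion (i : ℤ) :
    ∃ t q, mul (P.a i) t = 0 ∧ mul (P.a i) q = (1 / 4 : ℝ) • q ∧
      P.a (i - 1) + P.a (i + 1) = (2 * P.x) • P.a i + t + q ∧
      mul (P.a i) (mul t t) = 0 ∧ mul (P.a i) (mul t q) = (1 / 4 : ℝ) • mul t q ∧
      mul (P.a i) (mul q q) = ((1 / 4 : ℝ) * B (P.a (i - 1) + P.a (i + 1)) q) • P.a i := by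
  have hv : P.ν i (P.a (i - 1) + P.a (i + 1)) = P.a (i - 1) + P.a (i + 1) := by
    rw [map_add, P.refl, P.refl, show 2 * i - (i - 1) = i + 1 by ring,
      show 2 * i - (i + 1) = i - 1 by ring, add_comm]
  obtain ⟨t, q, h1, h2, h3, h4, h5, h6⟩ := fixed_fusion P.amb (P.pair i) (P.unit i) hv
  refine ⟨t, q, h1, h2, ?_, h4, h5, h6⟩
  rw [h3, map_add, P.dot_prev, P.dot_next, two_mul]

lemma mul_a_S (i : ℤ) :
    mul (P.a i) P.S = (7 / 32 : ℝ) • P.S + (3 / 4 * P.x - 25 / 1024) • P.a i +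
      (7 / 2048 : ℝ) • (P.a (i - 1) + P.a (i + 1)) := by
  obtain ⟨t, q, h1, h2, h3, -⟩ := P.nb_fusion i
  have h4 : mul (P.a i) (P.a (i - 1) + P.a (i + 1)) = (2 * P.x) • P.a i + (1 / 4 : ℝ) • q := by
    rw [h3, map_add, map_add, map_smul, P.idem, h1, h2, add_zero]
  rw [map_add, P.mul_prev, P.mul_next] at h4
  have hq : q = (8 : ℝ) • P.S + (1 / 4 - 8 * P.x) • P.a i +
      (1 / 8 : ℝ) • (P.a (i - 1) + P.a (i + 1)) := by
    linear_combination (norm := module) (-4 : ℝ) • h4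
  rw [hq] at h2
  simp only [map_add, map_smul, P.idem, P.mul_prev, P.mul_next] at h2
  linear_combination (norm := module) (1 / 8 : ℝ) • h2

lemma Y_eq (i : ℤ) : P.Y i = P.y := by
  have key : ∀ j, P.Y (j - 1) = P.Y j := by
    intro j
    have e1 : B (mul (P.a j) (P.a (j + 1))) P.S = B (P.a j) (mul (P.a (j + 1)) P.S) := P.assoc' _ _ _
    have e2 : B (mul (P.a (j + 1)) (P.a j)) P.S = B (P.a (j + 1)) (mul (P.a j) P.S) := P.assoc' _ _ _
    rw [P.cm, e2] at e1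
    have e3 : B (P.a (j + 1)) (P.a (j - 1)) = P.Y (j - 1) := by
      rw [Y, show j - 1 + 2 = j + 1 by ring, P.sy]
    have e4 : B (P.a j) (P.a (j + 1 + 1)) = P.Y j := by
      rw [Y, show j + 1 + 1 = j + 2 by ring]
    have e5 : B (P.a (j + 1)) (P.a j) = P.x := by rw [P.sy, P.dot_next]
    rw [P.mul_a_S, P.mul_a_S] at e1
    simp only [map_add, map_smul, smul_eq_mul, P.dot_a_S, e3, e4, e5, P.dot_next, P.unit,
      add_sub_cancel_right] at e1
    linarith
  exact const_of_step P.Y (fun j => (key j).symm) i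

lemma dot_two (i : ℤ) : B (P.a i) (P.a (i + 2)) = P.y := P.Y_eq i

lemma dot_two_prev (i : ℤ) : B (P.a i) (P.a (i - 2)) = P.y := by
  have h := P.dot_two (i - 2)
  rwa [sub_add_cancel, P.sy] at h

lemma mul_a_T (i : ℤ) :
    mul (P.a i) (P.T i) = (7 / 32 : ℝ) • P.T i + (3 / 4 * P.y - 25 / 1024) • P.a i +
      (7 / 2048 : ℝ) • (P.a (i - 2) + P.a (i + 2)) := by
  have hv : P.ν i (P.a (i - 2) + P.a (i + 2)) = P.a (i - 2) + P.a (i + 2) := by
    rw [map_add, P.refl, P.refl, show 2 * i - (i - 2) = i + 2 by ring,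
      show 2 * i - (i + 2) = i - 2 by ring, add_comm]
  obtain ⟨t, q, h1, h2, h3, -⟩ := fixed_fusion P.amb (P.pair i) (P.unit i) hv
  rw [map_add, P.dot_two, P.dot_two_prev] at h3
  have h4 : mul (P.a i) (P.a (i - 2) + P.a (i + 2)) =
      (P.y + P.y) • P.a i + (1 / 4 : ℝ) • q := by
    rw [h3, map_add, map_add, map_smul, P.idem, h1, h2, add_zero]
  rw [map_add, P.mul_two_prev, P.mul_two] at h4
  have hq : q = (8 : ℝ) • P.T i + (1 / 4 - 8 * P.y) • P.a i +
      (1 / 8 : ℝ) • (P.a (i - 2) + P.a (i + 2)) := by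
    linear_combination (norm := module) (-4 : ℝ) • h4
  rw [hq] at h2
  simp only [map_add, map_smul, P.idem, P.mul_two_prev, P.mul_two] at h2
  linear_combination (norm := module) (1 / 8 : ℝ) • h2

/-- The two results of the fusion rules at `a i`. -/
lemma fusion_products (i : ℤ) :
    mul (P.a i) (P.T (i - 1)) = (32 / 3 * P.x - 19 / 48) • P.S + (7 / 96 : ℝ) • P.T i +
      (1 / 6 * P.x - 19 / 3072) • (P.a (i - 1) + P.a (i + 1)) +
      (7 / 6144 : ℝ) • (P.a (i - 2) + P.a (i + 2)) +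
      (-32 / 3 * P.x ^ 2 + 5 / 3 * P.x - 1 / 24 * P.y - 127 / 3072) • P.a i ∧
    mul P.S P.S = (-5 / 12 * P.x - 13 / 1536) • P.S + (-7 / 1536 : ℝ) • P.T i +
      (7 / 2048 : ℝ) • P.T (i - 1) +
      (49 / 768 * P.x - 245 / 196608) • (P.a (i - 1) + P.a (i + 1)) +
      (49 / 196608 : ℝ) • (P.a (i - 2) + P.a (i + 2)) +
      (7 / 6 * P.x ^ 2 - 7 / 384 * P.x + 7 / 1536 * P.y - 7 / 98304) • P.a i := by
  obtain ⟨t, q, h1, h2, h3, htt, htq, hqq⟩ := P.nb_fusion i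
  have h4 : mul (P.a i) (P.a (i - 1) + P.a (i + 1)) = (2 * P.x) • P.a i + (1 / 4 : ℝ) • q := by
    rw [h3, map_add, map_add, map_smul, P.idem, h1, h2, add_zero]
  rw [map_add, P.mul_prev, P.mul_next] at h4
  have hq : q = (8 : ℝ) • P.S + (1 / 4 - 8 * P.x) • P.a i +
      (1 / 8 : ℝ) • P.a (i - 1) + (1 / 8 : ℝ) • P.a (i + 1) := by
    linear_combination (norm := module) (-4 : ℝ) • h4
  have ht : t = (7 / 8 : ℝ) • P.a (i - 1) + (7 / 8 : ℝ) • P.a (i + 1) - (8 : ℝ) • P.S +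
      (6 * P.x - 1 / 4) • P.a i := by
    linear_combination (norm := module) (-1 : ℝ) • h3 - (1 : ℝ) • hq
  have hbc : mul (P.a (i - 1)) (P.a (i + 1)) =
      P.T (i - 1) + (1 / 32 : ℝ) • (P.a (i - 1) + P.a (i + 1)) := by
    have h := P.mul_two (i - 1); rwa [show i - 1 + 2 = i + 1 by ring] at h
  have hdbc : B (P.a (i - 1)) (P.a (i + 1)) = P.y := by
    have h := P.dot_two (i - 1); rwa [show i - 1 + 2 = i + 1 by ring] at h
  have hB : B (P.a (i - 1) + P.a (i + 1)) q =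
      16 * (31 / 32 * P.x - 1 / 32) + (1 / 4 - 8 * P.x) * (2 * P.x) + (1 / 8) * (2 + 2 * P.y) := by
    rw [hq]
    simp only [map_add, map_smul, LinearMap.add_apply, smul_eq_mul, P.dot_a_S, P.unit, hdbc,
      P.sy (P.a (i + 1)) (P.a (i - 1)), P.sy _ (P.a i), P.dot_prev, P.dot_next]
    ring
  have hSp := P.mul_a_S (i + 1)
  have hSm := P.mul_a_S (i - 1)
  rw [show i + 1 - 1 = i by ring, show i + 1 + 1 = i + 2 by ring] at hSp
  rw [show i - 1 - 1 = i - 2 by ring, show i - 1 + 1 = i by ring] at hSm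
  have hS0 := P.mul_a_S i
  rw [hB, hq] at hqq
  rw [ht] at htt
  rw [ht, hq] at htq
  have c1 : mul (P.a (i + 1)) (P.a (i - 1)) = mul (P.a (i - 1)) (P.a (i + 1)) := P.cm _ _
  have c2 : ∀ j, mul P.S (P.a j) = mul (P.a j) P.S := fun j => P.cm _ _
  have c3 : mul (P.a (i - 1)) (P.a i) = mul (P.a i) (P.a (i - 1)) := P.cm _ _
  have c4 : mul (P.a (i + 1)) (P.a i) = mul (P.a i) (P.a (i + 1)) := P.cm _ _
  simp only [map_add, map_sub, map_smul, LinearMap.add_apply, LinearMap.sub_apply,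
    LinearMap.smul_apply, smul_add, smul_sub, P.idem, c1, c2, c3, c4, hbc, hSp, hSm, hS0,
    P.mul_prev, P.mul_next, P.mul_two, P.mul_two_prev] at htt htq hqq
  have hT : mul (P.a i) (P.T (i - 1)) = (32 / 3 * P.x - 19 / 48) • P.S + (7 / 96 : ℝ) • P.T i +
      (1 / 6 * P.x - 19 / 3072) • (P.a (i - 1) + P.a (i + 1)) +
      (7 / 6144 : ℝ) • (P.a (i - 2) + P.a (i + 2)) +
      (-32 / 3 * P.x ^ 2 + 5 / 3 * P.x - 1 / 24 * P.y - 127 / 3072) • P.a i := by
    linear_combination (norm := module) (2 / 3 : ℝ) • htt - (2 / 3 : ℝ) • hqq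
  refine ⟨hT, ?_⟩
  linear_combination (norm := module)
    (1 / 16 : ℝ) • htq - (1 / 96 : ℝ) • htt + (7 / 96 : ℝ) • hqq

end Seq

end Cfsg.Agent.H89.Sakuma
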