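import Mathlib
import Cfsg.Agent.H89.Sakuma.Seq

/-! The recurrence for the axes and the two polynomial relations of Sakuma's theorem. -/

set_option autoImplicit false

namespace Cfsg.Agent.H89.Sakuma

variable {V : Type*} [AddCommGroup V] [Module ℝ V]

namespace Seq

variable {mul : V →ₗ[ℝ] V →ₗ[ℝ] V} {B : LinearMap.BilinForm ℝ V} (P : Seq mul B)

/-- The scalar occurring in the recurrence. -/
noncomputable def k : ℝ := 32768 / 7 * P.x ^ 2 - 2304 / 7 * P.x + 128 / 7 * P.y + 33 / 7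

lemma recurrence (i : ℤ) :
    P.a (i + 3) = (-32 : ℝ) • P.T i + (32 : ℝ) • P.T (i + 1) + P.a (i - 2) +
      (256 * P.x - 6) • P.a (i - 1) + P.k • P.a i - P.k • P.a (i + 1) -
      (256 * P.x - 6) • P.a (i + 2) := by
  have h0 := (P.fusion_products i).2
  have h1 := (P.fusion_products (i + 1)).2
  rw [h0] at h1
  have hT : P.T (i - 1) = P.T (i + 1) := by
    have h := P.T_period (i - 1); rw [show i - 1 + 2 = i + 1 by ring] at h; exact h.symm
  rw [show i + 1 - 1 = i by ring, show i + 1 + 1 = i + 2 by ring, show i + 1 - 2 = i - 1 by ring,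
    show i + 1 + 2 = i + 3 by ring, hT] at h1
  simp only [k]
  linear_combination (norm := module) (-196608 / 49 : ℝ) • h1

/-- `B (a i) (σ₂)` for the same parity. -/
lemma dot_T_same (i : ℤ) : B (P.a i) (P.T i) = 31 / 32 * P.y - 1 / 32 := by
  rw [T, map_sub, map_smul, map_add, ← P.assoc', P.idem, P.dot_two, P.unit, smul_eq_mul]
  ring

lemma dot_T_same' (i : ℤ) : B (P.a (i + 2)) (P.T i) = 31 / 32 * P.y - 1 / 32 := by
  rw [← P.T_period i, P.dot_T_same]

/-- `B (a i) (σ₂)` for the other parity. -/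
lemma dot_T_next (i : ℤ) : B (P.a i) (P.T (i + 1)) = 15 / 16 * P.x + 1 / 32 * P.y - 1 / 32 := by
  have hT : P.T (i + 1) =
      mul (P.a (i - 1)) (P.a (i + 1)) - (1 / 32 : ℝ) • (P.a (i - 1) + P.a (i + 1)) := by
    have h := P.T_period (i - 1); rw [show i - 1 + 2 = i + 1 by ring] at h
    rw [h, T, show i - 1 + 2 = i + 1 by ring]
  have hy : B (P.a (i - 1)) (P.a (i + 1)) = P.y := by
    have h := P.dot_two (i - 1); rwa [show i - 1 + 2 = i + 1 by ring] at h
  rw [hT, map_sub, map_smul, map_add, P.dot_prev, P.dot_next, ← P.assoc', P.mul_prev]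
  simp only [map_add, map_smul, LinearMap.add_apply, LinearMap.smul_apply, smul_eq_mul,
    P.sy P.S, P.dot_a_S, P.dot_next, hy]
  ring

lemma dot_T_prev (i : ℤ) : B (P.a (i + 1)) (P.T i) = 15 / 16 * P.x + 1 / 32 * P.y - 1 / 32 := by
  have h := P.dot_T_next (i + 1)
  rwa [show i + 1 + 1 = i + 2 by ring, P.T_period] at h

/-- `λ₃`. -/
noncomputable def l3 : ℝ :=
  -32 * (31 / 32 * P.y - 1 / 32) + 32 * (15 / 16 * P.x + 1 / 32 * P.y - 1 / 32) + P.y +
    (256 * P.x - 6) * P.x + P.k - P.k * P.x - (256 * P.x - 6) * P.y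

lemma dot_three (i : ℤ) : B (P.a i) (P.a (i + 3)) = P.l3 := by
  rw [P.recurrence i]
  simp only [map_add, map_sub, map_smul, smul_eq_mul, P.dot_T_same, P.dot_T_next, P.dot_two_prev,
    P.dot_prev, P.unit, P.dot_next, P.dot_two, l3]
  ring

/-- `λ₄`. -/
noncomputable def l4 : ℝ :=
  -32 * (15 / 16 * P.x + 1 / 32 * P.y - 1 / 32) + 32 * (31 / 32 * P.y - 1 / 32) + P.x +
    (256 * P.x - 6) + P.k * P.x - P.k * P.y - (256 * P.x - 6) * P.l3

lemma dot_four (i : ℤ) : B (P.a i) (P.a (i + 4)) = P.l4 := by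
  rw [show i + 4 = i + 1 + 3 by ring, P.recurrence (i + 1), show i + 1 + 1 = i + 2 by ring,
    show i + 1 - 2 = i - 1 by ring, show i + 1 - 1 = i by ring, show i + 1 + 2 = i + 3 by ring,
    P.T_period]
  simp only [map_add, map_sub, map_smul, smul_eq_mul, P.dot_T_same, P.dot_T_next,
    P.dot_prev, P.unit, P.dot_next, P.dot_two, P.dot_three, l4]
  ring

/-- `λ₅`. -/
noncomputable def l5 : ℝ :=
  -32 * (31 / 32 * P.y - 1 / 32) + 32 * (15 / 16 * P.x + 1 / 32 * P.y - 1 / 32) + 1 +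
    (256 * P.x - 6) * P.x + P.k * P.y - P.k * P.l3 - (256 * P.x - 6) * P.l4

lemma dot_five (i : ℤ) : B (P.a i) (P.a (i + 5)) = P.l5 := by
  rw [show i + 5 = i + 2 + 3 by ring, P.recurrence (i + 2),
    show i + 2 + 1 = i + 1 + 2 by ring, P.T_period, P.T_period,
    show i + 2 - 2 = i by ring, show i + 2 - 1 = i + 1 by ring,
    show i + 1 + 2 = i + 3 by ring, show i + 2 + 2 = i + 4 by ring]
  simp only [map_add, map_sub, map_smul, smul_eq_mul, P.dot_T_same, P.dot_T_next,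
    P.unit, P.dot_next, P.dot_two, P.dot_three, P.dot_four, l5]

/-- `λ₆`. -/
noncomputable def l6 : ℝ :=
  -32 * (15 / 16 * P.x + 1 / 32 * P.y - 1 / 32) + 32 * (31 / 32 * P.y - 1 / 32) + P.x +
    (256 * P.x - 6) * P.y + P.k * P.l3 - P.k * P.l4 - (256 * P.x - 6) * P.l5

lemma dot_six (i : ℤ) : B (P.a i) (P.a (i + 6)) = P.l6 := by
  rw [show i + 6 = i + 3 + 3 by ring, P.recurrence (i + 3),
    show i + 3 + 1 = i + 2 + 2 by ring, P.T_period, P.T_period,
    show i + 3 - 2 = i + 1 by ring, show i + 3 - 1 = i + 2 by ring,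
    show i + 2 + 2 = i + 4 by ring, show i + 3 + 2 = i + 5 by ring,
    show i + 3 = i + 1 + 2 by ring, P.T_period, show i + 1 + 2 = i + 3 by ring]
  simp only [map_add, map_sub, map_smul, smul_eq_mul, P.dot_T_same, P.dot_T_next,
    P.dot_next, P.dot_two, P.dot_three, P.dot_four, P.dot_five, l6]

/-- The quartic relation, from `B (a 3) σ₂`. -/
lemma relation_one :
    786432 / 7 * P.x ^ 4 - 872448 / 7 * P.x ^ 3 + 15360 / 7 * P.x ^ 2 * P.y +
      69120 / 7 * P.x ^ 2 + 3336 / 7 * P.x * P.y - 1800 / 7 * P.x + 48 / 7 * P.y ^ 2 -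
      501 / 56 * P.y + 117 / 56 = 0 := by
  have e : B (P.a 3) (P.T 1) = 31 / 32 * P.y - 1 / 32 := by
    have h := P.dot_T_same' 1; norm_num at h; norm_num; exact h
  have r := P.recurrence 0
  norm_num at r
  have t1 : P.T (-1) = P.T 1 := by
    have h := P.T_period (-1); norm_num at h; exact h.symm
  have a1 : mul (P.a 1) (P.T 0) = (32 / 3 * P.x - 19 / 48) • P.S + (7 / 96 : ℝ) • P.T 1 +
      (1 / 6 * P.x - 19 / 3072) • (P.a 0 + P.a 2) +
      (7 / 6144 : ℝ) • (P.a (-1) + P.a 3) +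
      (-32 / 3 * P.x ^ 2 + 5 / 3 * P.x - 1 / 24 * P.y - 127 / 3072) • P.a 1 := by
    have h := (P.fusion_products 1).1; norm_num at h; norm_num; exact h
  have a1' : mul (P.a 1) (P.T 1) = (7 / 32 : ℝ) • P.T 1 + (3 / 4 * P.y - 25 / 1024) • P.a 1 +
      (7 / 2048 : ℝ) • (P.a (-1) + P.a 3) := by
    have h := P.mul_a_T 1; norm_num at h; norm_num; exact h
  have d10 : B (P.a (-1)) (P.a 0) = P.x := by have h := P.dot_next (-1); norm_num at h; exact h
  have d11 : B (P.a (-1)) (P.a 1) = P.y := by have h := P.dot_two (-1); norm_num at h; exact h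
  have d12 : B (P.a (-1)) (P.a 2) = P.l3 := by have h := P.dot_three (-1); norm_num at h; exact h
  have d13 : B (P.a (-1)) (P.a 3) = P.l4 := by have h := P.dot_four (-1); norm_num at h; exact h
  have dT1 : B (P.a (-1)) (P.T 1) = 31 / 32 * P.y - 1 / 32 := by
    rw [← t1]; exact P.dot_T_same _
  have dT0 : B (P.a (-1)) (P.T 0) = 15 / 16 * P.x + 1 / 32 * P.y - 1 / 32 := by
    have h := P.dot_T_next (-1); norm_num at h; norm_num; exact h
  have eT1 : B (P.a 1) (P.T 1) = 31 / 32 * P.y - 1 / 32 := P.dot_T_same 1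
  have eT0 : B (P.a 1) (P.T 0) = 15 / 16 * P.x + 1 / 32 * P.y - 1 / 32 := by
    have h := P.dot_T_prev 0; norm_num at h; norm_num; exact h
  have hT : P.T 1 = mul (P.a (-1)) (P.a 1) - (1 / 32 : ℝ) • (P.a (-1) + P.a 1) := by
    rw [← t1, T]; norm_num
  have gram : ∀ v, B (P.T 1) v =
      B (P.a (-1)) (mul (P.a 1) v) - 1 / 32 * (B (P.a (-1)) v + B (P.a 1) v) := by
    intro v
    conv_lhs => rw [hT]
    simp only [map_sub, map_smul, map_add, LinearMap.sub_apply, LinearMap.smul_apply,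
      LinearMap.add_apply, smul_eq_mul, P.assoc']
  have TT1 : B (P.T 1) (P.T 1) = B (P.a (-1)) (mul (P.a 1) (P.T 1)) -
      1 / 32 * (B (P.a (-1)) (P.T 1) + B (P.a 1) (P.T 1)) := gram _
  have TT0 : B (P.T 0) (P.T 1) = B (P.a (-1)) (mul (P.a 1) (P.T 0)) -
      1 / 32 * (B (P.a (-1)) (P.T 0) + B (P.a 1) (P.T 0)) := by rw [P.sy]; exact gram _
  rw [a1', dT1, eT1] at TT1
  rw [a1, dT0, eT0] at TT0
  simp only [map_add, map_smul, smul_eq_mul, P.dot_a_S, dT1, d10, d11, d12, d13, P.unit] at TT1 TT0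
  have f2' : B (P.a (-2)) (P.T 1) = 15 / 16 * P.x + 1 / 32 * P.y - 1 / 32 := by
    rw [← t1]; have h := P.dot_T_next (-2); norm_num at h; norm_num; exact h
  have f0 : B (P.a 0) (P.T 1) = 15 / 16 * P.x + 1 / 32 * P.y - 1 / 32 := by
    have h := P.dot_T_next 0; norm_num at h; norm_num; exact h
  have f2 : B (P.a 2) (P.T 1) = 15 / 16 * P.x + 1 / 32 * P.y - 1 / 32 := by
    have h := P.dot_T_prev 1; norm_num at h; norm_num; exact h
  rw [r] at e
  simp only [map_add, map_sub, map_smul, map_neg, neg_smul, LinearMap.add_apply,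
    LinearMap.sub_apply, LinearMap.smul_apply, LinearMap.neg_apply, smul_eq_mul,
    f2', dT1, f0, eT1, f2, TT0, TT1] at e
  simp only [l4, l3, k] at e
  linear_combination e

/-- The quintic relation, from `B (a 0 * a 3) (a 3)`. -/
lemma relation_two :
    402653184 / 49 * P.x ^ 5 - 453771264 / 49 * P.x ^ 4 + 19660800 / 49 * P.x ^ 3 * P.y +
      33103872 / 49 * P.x ^ 3 - 1195008 / 49 * P.x ^ 2 * P.y - 92160 / 7 * P.x ^ 2 +
      70656 / 49 * P.x * P.y ^ 2 + 124392 / 49 * P.x * P.y - 216 / 7 * P.x +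
      2088 / 49 * P.y ^ 2 - 8703 / 196 * P.y + 351 / 196 = 0 := by
  have e : B (mul (P.a 0) (P.a 3)) (P.a 3) = P.l3 := by
    rw [P.assoc', P.idem]; have h := P.dot_three 0; norm_num at h; exact h
  have r := P.recurrence 0
  norm_num at r
  have t1 : P.T (-1) = P.T 1 := by
    have h := P.T_period (-1); norm_num at h; exact h.symm
  have m0 : mul (P.a 0) (P.T 0) = (7 / 32 : ℝ) • P.T 0 + (3 / 4 * P.y - 25 / 1024) • P.a 0 +
      (7 / 2048 : ℝ) • (P.a (-2) + P.a 2) := by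
    have h := P.mul_a_T 0; norm_num at h; norm_num; exact h
  have m1 : mul (P.a 0) (P.T 1) = (32 / 3 * P.x - 19 / 48) • P.S + (7 / 96 : ℝ) • P.T 0 +
      (1 / 6 * P.x - 19 / 3072) • (P.a (-1) + P.a 1) +
      (7 / 6144 : ℝ) • (P.a (-2) + P.a 2) +
      (-32 / 3 * P.x ^ 2 + 5 / 3 * P.x - 1 / 24 * P.y - 127 / 3072) • P.a 0 := by
    have h := (P.fusion_products 0).1; norm_num [t1] at h; norm_num; exact h
  have n2 : mul (P.a 0) (P.a (-2)) = P.T 0 + (1 / 32 : ℝ) • (P.a 0 + P.a (-2)) := by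
    have h := P.mul_two_prev 0; norm_num at h; norm_num; exact h
  have n1 : mul (P.a 0) (P.a (-1)) = P.S + (1 / 32 : ℝ) • (P.a 0 + P.a (-1)) := by
    have h := P.mul_prev 0; norm_num at h; norm_num; exact h
  have p1 : mul (P.a 0) (P.a 1) = P.S + (1 / 32 : ℝ) • (P.a 0 + P.a 1) := P.mul_next 0
  have p2 : mul (P.a 0) (P.a 2) = P.T 0 + (1 / 32 : ℝ) • (P.a 0 + P.a 2) := P.mul_two 0
  have w : mul (P.a 0) (P.a 3) = mul (P.a 0) ((-32 : ℝ) • P.T 0 + (32 : ℝ) • P.T 1 + P.a (-2) +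
      (256 * P.x - 6) • P.a (-1) + P.k • P.a 0 - P.k • P.a 1 -
      (256 * P.x - 6) • P.a 2) := by
    congr 1
    rw [r]; module
  simp only [map_add, map_sub, map_smul, m0, m1, n2, n1, p1, p2, P.idem, smul_add, smul_sub] at w
  have g5 : B (P.a (-2)) (P.a 3) = P.l5 := by have h := P.dot_five (-2); norm_num at h; exact h
  have g4 : B (P.a (-1)) (P.a 3) = P.l4 := by have h := P.dot_four (-1); norm_num at h; exact h
  have g3 : B (P.a 0) (P.a 3) = P.l3 := by have h := P.dot_three 0; norm_num at h; exact h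
  have g2 : B (P.a 1) (P.a 3) = P.y := by have h := P.dot_two 1; norm_num at h; exact h
  have g1 : B (P.a 2) (P.a 3) = P.x := by have h := P.dot_next 2; norm_num at h; exact h
  have gT : B (P.T 0) (P.a 3) = 15 / 16 * P.x + 1 / 32 * P.y - 1 / 32 := by
    rw [P.sy]; have h := P.dot_T_prev 2; norm_num at h
    have h2 := P.T_period 0; norm_num at h2; rw [h2] at h; norm_num; exact h
  rw [w] at e
  simp only [map_add, map_sub, map_smul, LinearMap.add_apply, LinearMap.sub_apply,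
    LinearMap.smul_apply, smul_eq_mul, P.sy P.S (P.a 3), P.dot_a_S, gT, g5, g4, g3, g2, g1] at e
  simp only [l5, l4, l3, k] at e
  linear_combination e

/-- Sakuma's list: one of the first six inner products equals one. -/
lemma short_period : P.x = 1 ∨ P.y = 1 ∨ P.l3 = 1 ∨ P.l4 = 1 ∨ P.l5 = 1 ∨ P.l6 = 1 := by
  have h1 := P.relation_one
  have h2 := P.relation_two
  simp only [l6, l5, l4, l3, k]
  generalize P.x = x at h1 h2 ⊢
  generalize P.y = y at h1 h2 ⊢
  obtain ⟨A, hA⟩ : ∃ A, A = -2949120 / 49 * x ^ 3 - 138240 * x ^ 2 + 71460 / 49 * x + 8775 / 784 :=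
    ⟨_, rfl⟩
  obtain ⟨C, hC⟩ : ∃ C, C = -754974720 / 49 * x ^ 5 + 796262400 / 49 * x ^ 4 -
      30689280 / 49 * x ^ 3 - 1002240 / 49 * x ^ 2 + 55260 / 49 * x - 8775 / 784 := ⟨_, rfl⟩
  have hL : A * y + C = 0 := by
    rw [hA, hC]
    linear_combination h2 - (1472 / 7 * x + 87 / 14) * h1
  have hR : (x - 1) * (x - 1 / 8) * x * (x - 13 / 256) * (x - 1 / 64) * (x - 1 / 64) *
      (x - 1 / 32) * (x - 3 / 128) * (x - 5 / 256) = 0 := by
    have hres : 48 / 7 * C ^ 2 - C * A * (15360 / 7 * x ^ 2 + 3336 / 7 * x - 501 / 56) +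
        A ^ 2 * (786432 / 7 * x ^ 4 - 872448 / 7 * x ^ 3 + 69120 / 7 * x ^ 2 - 1800 / 7 * x +
          117 / 56) = 0 := by
      linear_combination A ^ 2 * h1 -
        (48 / 7 * (A * y - C) + (15360 / 7 * x ^ 2 + 3336 / 7 * x - 501 / 56) * A) * hL
    rw [hA, hC] at hres
    linear_combination (-343 / 1709960483517235200) * hres
  rw [hA, hC] at hL
  simp only [mul_eq_zero, sub_eq_zero] at hR
  rcases hR with (((((((hx | hx) | hx) | hx) | hx) | hx) | hx) | hx) | hx <;> subst hx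
  · exact Or.inl rfl
  · have hy : y = 1 := by linarith
    subst hy; norm_num
  · have hy : y = 1 := by linarith
    subst hy; norm_num
  · have hy : y = 13 / 256 := by linarith
    subst hy; norm_num
  · have hy : (y - 1 / 64) * (y - 1 / 8) = 0 := by linear_combination (7 / 48) * h1
    rcases mul_eq_zero.mp hy with h | h <;> rw [sub_eq_zero] at h <;> subst h <;> norm_num
  · have hy : (y - 1 / 64) * (y - 1 / 8) = 0 := by linear_combination (7 / 48) * h1
    rcases mul_eq_zero.mp hy with h | h <;> rw [sub_eq_zero] at h <;> subst h <;> norm_num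
  · have hy : y = 0 := by linarith
    subst hy; norm_num
  · have hy : y = 3 / 128 := by linarith
    subst hy; norm_num
  · have hy : y = 13 / 256 := by linarith
    subst hy; norm_num

end Seq

end Cfsg.Agent.H89.Sakuma
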