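import Mathlib
import Cfsg.Agent.H89.Sakuma.Rec

/-! Sakuma's theorem: two Majorana involutions generate a dihedral group of order at most 12. -/

set_option autoImplicit false

namespace Cfsg.Agent.H89.Sakuma

open Cfsg.Axial

variable {V : Type*} [AddCommGroup V] [Module ℝ V] {mul : V →ₗ[ℝ] V →ₗ[ℝ] V}
  {B : LinearMap.BilinForm ℝ V}

lemma map_eigen {φ : V ≃ₗ[ℝ] V} (hφ : ∀ u v, φ (mul u v) = mul (φ u) (φ v))
    (a : V) (c : ℝ) : (eigen mul a c).map φ.toLinearMap = eigen mul (φ a) c := by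
  ext v
  simp only [Submodule.mem_map, eigen, Module.End.mem_eigenspace_iff, LinearEquiv.coe_coe]
  constructor
  · rintro ⟨u, hu, rfl⟩
    rw [← hφ, hu, map_smul]
  · intro h
    refine ⟨φ.symm v, φ.injective ?_, by simp⟩
    rw [hφ, map_smul]; simpa using h

lemma map_eigenSum {φ : V ≃ₗ[ℝ] V} (hφ : ∀ u v, φ (mul u v) = mul (φ u) (φ v))
    (a : V) (S : Set ℝ) : (eigenSum mul a S).map φ.toLinearMap = eigenSum mul (φ a) S := by
  simp only [eigenSum, Submodule.map_iSup, map_eigen hφ]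

variable (mul B) in
/-- Automorphisms of the product and of the form. -/
def autGroup : Subgroup (V ≃ₗ[ℝ] V) where
  carrier := {φ | (∀ u v, φ (mul u v) = mul (φ u) (φ v)) ∧ ∀ u v, B (φ u) (φ v) = B u v}
  one_mem' := ⟨fun _ _ => rfl, fun _ _ => rfl⟩
  mul_mem' := by
    rintro φ ψ ⟨h1, h2⟩ ⟨h3, h4⟩
    refine ⟨fun u v => ?_, fun u v => ?_⟩
    · simp [LinearEquiv.mul_apply, h1, h3]
    · simp [LinearEquiv.mul_apply, h2, h4]
  inv_mem' := by
    rintro φ ⟨h1, h2⟩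
    refine ⟨fun u v => φ.injective ?_, fun u v => ?_⟩
    · show φ (φ.symm (mul u v)) = φ (mul (φ.symm u) (φ.symm v))
      simp [h1]
    · show B (φ.symm u) (φ.symm v) = B u v
      rw [← h2]; simp

lemma conj_pair {μ φ : V ≃ₗ[ℝ] V} {a : V} (hφ : φ ∈ autGroup mul B)
    (h : IsMajoranaPair mul B μ a) : IsMajoranaPair mul B (φ * μ * φ⁻¹) (φ a) := by
  obtain ⟨h1, h2, ⟨⟨ha, haa, htop, hlaw⟩, hprim⟩, hfix, hneg⟩ := h
  have hm : φ * μ * φ⁻¹ ∈ autGroup mul B :=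
    mul_mem (mul_mem hφ ⟨h1, h2⟩) (inv_mem hφ)
  have hφ := hφ.1
  have hc : ∀ v, (φ * μ * φ⁻¹) (φ v) = φ (μ v) := fun v => by
    show φ (μ (φ.symm (φ v))) = _
    rw [LinearEquiv.symm_apply_apply]
  refine ⟨hm.1, hm.2, ⟨⟨?_, by rw [← hφ, haa], ?_, ?_⟩, ?_⟩, ?_, ?_⟩
  · simpa using ha
  · rw [← map_eigenSum hφ, htop, Submodule.map_top, LinearMap.range_eq_top]
    exact φ.surjective
  · intro c hc d hd u hu v hv
    rw [← map_eigen hφ] at hu hv
    obtain ⟨u', hu', rfl⟩ := hu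
    obtain ⟨v', hv', rfl⟩ := hv
    rw [← map_eigenSum hφ]
    exact ⟨mul u' v', hlaw c hc d hd u' hu' v' hv', hφ u' v'⟩
  · rw [← map_eigen hφ, hprim, Submodule.map_span, Set.image_singleton]
    rfl
  · intro v hv
    rw [← map_eigenSum hφ] at hv
    obtain ⟨u, hu, rfl⟩ := hv
    show (φ * μ * φ⁻¹) (φ u) = φ u
    rw [hc]; exact congrArg φ (hfix u hu)
  · intro v hv
    rw [← map_eigen hφ] at hv
    obtain ⟨u, hu, rfl⟩ := hv
    show (φ * μ * φ⁻¹) (φ u) = -φ u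
    rw [hc, ← map_neg]; exact congrArg φ (hneg u hu)

lemma eq_of_axis_eq {μ μ' : V ≃ₗ[ℝ] V} {a : V} (h : IsMajoranaPair mul B μ a)
    (h' : IsMajoranaPair mul B μ' a) : μ = μ' := by
  ext v
  obtain ⟨p, q, rfl, hp, hp', hq, hq'⟩ := split_spectrum h v
  have e1 : μ' p = p := h'.2.2.2.1 p hp'
  have e2 : μ' q = -q := h'.2.2.2.2 q (Module.End.mem_eigenspace_iff.mpr hq')
  simp [hp, hq, e1, e2]

/-- Two Majorana involutions have a product of order at most six. -/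
theorem order_le_six (hV : IsMajoranaAmbient mul B) {μ₀ μ₁ : V ≃ₗ[ℝ] V} {a₀ a₁ : V}
    (h₀ : IsMajoranaPair mul B μ₀ a₀) (h₁ : IsMajoranaPair mul B μ₁ a₁)
    (hn₀ : B a₀ a₀ = 1) (hn₁ : B a₁ a₁ = 1) :
    ∃ n : ℕ, 1 ≤ n ∧ n ≤ 6 ∧ (μ₀ * μ₁) ^ n = 1 := by
  have hi₀ : μ₀ * μ₀ = 1 := LinearEquiv.ext (involutive h₀)
  have hi₁ : μ₁ * μ₁ = 1 := LinearEquiv.ext (involutive h₁)
  set f := μ₁ * μ₀ with hf
  have hfm : f ∈ autGroup mul B := mul_mem ⟨h₁.1, h₁.2.1⟩ ⟨h₀.1, h₀.2.1⟩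
  have hconj : ∀ k : ℤ, μ₀ * f ^ k = f ^ (-k) * μ₀ := by
    intro k
    have h1 : SemiconjBy μ₀ f f⁻¹ := by
      show μ₀ * f = f⁻¹ * μ₀
      rw [hf, mul_inv_rev, inv_eq_of_mul_eq_one_right hi₀, inv_eq_of_mul_eq_one_right hi₁]
      simp [mul_assoc]
    have h2 := h1.zpow_right k
    rwa [inv_zpow, ← zpow_neg] at h2
  let a : ℤ → V := fun i => (f ^ (i / 2)) (if i % 2 = 0 then a₀ else a₁)
  have ha_even : ∀ k : ℤ, a (2 * k) = (f ^ k) a₀ := fun k => by
    simp [a]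
  have ha_odd : ∀ k : ℤ, a (2 * k + 1) = (f ^ k) a₁ := fun k => by
    simp only [a]
    rw [show (2 * k + 1) / 2 = k by omega, if_neg (by omega)]
  have hrefl0 : ∀ j, μ₀ (a j) = a (-j) := by
    intro j
    obtain ⟨k, rfl | rfl⟩ : ∃ k, j = 2 * k ∨ j = 2 * k + 1 := ⟨j / 2, by omega⟩
    · rw [ha_even, show -(2 * k) = 2 * (-k) by ring, ha_even]
      have h := DFunLike.congr_fun (hconj k) a₀
      rwa [LinearEquiv.mul_apply, LinearEquiv.mul_apply, fix_axis h₀] at h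
    · rw [ha_odd, show -(2 * k + 1) = 2 * (-k - 1) + 1 by ring, ha_odd]
      have h := DFunLike.congr_fun (hconj k) a₁
      rw [LinearEquiv.mul_apply, LinearEquiv.mul_apply] at h
      rw [h, zpow_sub, zpow_one, LinearEquiv.mul_apply]
      congr 1
      rw [hf, mul_inv_rev, inv_eq_of_mul_eq_one_right hi₀, inv_eq_of_mul_eq_one_right hi₁,
        LinearEquiv.mul_apply, fix_axis h₁]
  have hshift : ∀ k j : ℤ, (f ^ k) (a j) = a (j + 2 * k) := by
    intro k j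
    obtain ⟨l, rfl | rfl⟩ : ∃ l, j = 2 * l ∨ j = 2 * l + 1 := ⟨j / 2, by omega⟩
    · rw [ha_even, show 2 * l + 2 * k = 2 * (k + l) by ring, ha_even, zpow_add,
        LinearEquiv.mul_apply]
    · rw [ha_odd, show 2 * l + 1 + 2 * k = 2 * (k + l) + 1 by ring, ha_odd, zpow_add,
        LinearEquiv.mul_apply]
  have hpair : ∀ i, IsMajoranaPair mul B (f ^ i * μ₀) (a i) := by
    intro i
    obtain ⟨k, rfl | rfl⟩ : ∃ k, i = 2 * k ∨ i = 2 * k + 1 := ⟨i / 2, by omega⟩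
    · rw [ha_even]
      have h := conj_pair (zpow_mem hfm k) h₀
      rwa [show f ^ k * μ₀ * (f ^ k)⁻¹ = f ^ (2 * k) * μ₀ by
        rw [← zpow_neg, mul_assoc, hconj, neg_neg, ← mul_assoc, ← zpow_add, two_mul]] at h
    · rw [ha_odd]
      have h := conj_pair (zpow_mem hfm k) h₁
      have hμ : μ₁ = f * μ₀ := by rw [hf, mul_assoc, hi₀, mul_one]
      rwa [show f ^ k * μ₁ * (f ^ k)⁻¹ = f ^ (2 * k + 1) * μ₀ by
        rw [hμ, ← zpow_neg, mul_assoc, mul_assoc, hconj, neg_neg, ← mul_assoc f,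
          ← mul_assoc, ← mul_assoc, ← zpow_add_one, ← zpow_add]
        congr 2
        ring] at h
  let P : Seq mul B :=
    { a := a
      ν := fun i => f ^ i * μ₀
      amb := hV
      pair := hpair
      unit := fun i => by
        obtain ⟨k, rfl | rfl⟩ : ∃ k, i = 2 * k ∨ i = 2 * k + 1 := ⟨i / 2, by omega⟩
        · rw [ha_even, (zpow_mem hfm k).2, hn₀]
        · rw [ha_odd, (zpow_mem hfm k).2, hn₁]
      refl := fun i j => by
        rw [LinearEquiv.mul_apply, hrefl0, hshift]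
        congr 1; ring }
  have key : ∀ n : ℕ, B (a 0) (a n) = 1 → (μ₀ * μ₁) ^ n = 1 := by
    intro n hn
    have e : a 0 = a n := by
      by_contra hne
      have h := hV.2.2.1 (a 0 - a n) (sub_ne_zero.mpr hne)
      have u0 : B (a 0) (a 0) = 1 := P.unit 0
      have un : B (a n) (a n) = 1 := P.unit n
      simp only [map_sub, LinearMap.sub_apply, u0, un, hn, hV.2.1 (a n) (a 0)] at h
      norm_num at h
    have h0 := hpair 0
    have h1 := hpair n
    rw [← e] at h1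
    have h2 := eq_of_axis_eq h1 h0
    rw [zpow_natCast, zpow_zero] at h2
    have h3 : f ^ n = 1 := mul_right_cancel h2
    have h4 : μ₀ * μ₁ = f⁻¹ := by
      rw [hf, mul_inv_rev, inv_eq_of_mul_eq_one_right hi₀, inv_eq_of_mul_eq_one_right hi₁]
    rw [h4, inv_pow, h3, inv_one]
  rcases P.short_period with h | h | h | h | h | h
  · exact ⟨1, le_rfl, by norm_num, key 1 ((P.dot_next 0).trans h)⟩
  · exact ⟨2, by norm_num, by norm_num, key 2 ((P.dot_two 0).trans h)⟩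
  · exact ⟨3, by norm_num, by norm_num, key 3 ((P.dot_three 0).trans h)⟩
  · exact ⟨4, by norm_num, by norm_num, key 4 ((P.dot_four 0).trans h)⟩
  · exact ⟨5, by norm_num, by norm_num, key 5 ((P.dot_five 0).trans h)⟩
  · exact ⟨6, by norm_num, le_rfl, key 6 ((P.dot_six 0).trans h)⟩

end Cfsg.Agent.H89.Sakuma
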